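import Cfsg.Agent.S2698
import Cfsg.Agent.S2699
import Cfsg.Agent.S2704
import Cfsg.Agent.S0277
import Cfsg.Agent.Known.PSLAutMain
import Cfsg.Agent.Char.Burnside
import Cfsg.Agent.Spor.GF4

/-!
# Outer involutions of `L₃(4)`
-/

set_option autoImplicit false

namespace Cfsg.Lib.QET.KlA

open Subgroup Cfsg.Lib.Known Matrix
open scoped MatrixGroups

/-- The field with four elements. -/
abbrev F : Type := Spor.GF4

/-- The inner-diagonal automorphisms. -/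
abbrev D : Subgroup (MulAut PSL(3, F)) := (innD (Fin 3) F).range

variable {τ : MulAut PSL(3, F)}

theorem inner (h : τ ∈ D) (h2 : τ * τ = 1) : τ ∈ Inn PSL(3, F) := by
  obtain ⟨g, rfl⟩ := h
  rw [inn_eq_map_innD]
  exact ⟨g * g * g * (GeneralLinearGroup.scalar _ (GeneralLinearGroup.det g))⁻¹,
    by simp [pow_three'], by simp [innD_scalar, h2]⟩

theorem cardO : Fintype.card {p : F × F × F × F × F × F //
    p.1 * p.1 + p.2.1 * p.2.1 + p.2.2.1 * p.2.2.1 = 1 ∧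
    p.2.2.2.1 * p.2.2.2.1 + p.2.2.2.2.1 * p.2.2.2.2.1 + p.2.2.2.2.2 * p.2.2.2.2.2 = 1 ∧
    p.1 * p.2.2.2.1 + p.2.1 * p.2.2.2.2.1 + p.2.2.1 * p.2.2.2.2.2 = 0} = 60 := by
  decide +kernel

theorem card_graph : Nat.card ↥(D ⊓ centralizer {graphAut (Fin 3) F}) ≤ 60 := by
  have k : ∀ x : ↥(D ⊓ centralizer {graphAut (Fin 3) F}), ∃ g : GL (Fin 3) F,
      innD _ F g = x ∧ g.1 * g.1ᵀ = 1 := by
    rintro ⟨_, ⟨g, rfl⟩, hg⟩
    have := mem_centralizer_singleton_iff.1 hg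
    rw [graphAut_mul_innD, mul_left_inj, innD_eq_iff_smul] at this
    obtain ⟨c, hc⟩ := this
    refine ⟨g * GeneralLinearGroup.scalar _ (c * c), by rw [map_mul, innD_scalar, mul_one], ?_⟩
    have h1 := congrArg (fun m => g.1 * mᵀ) hc
    simp only [Class.coe_invT, transpose_transpose, Units.mul_inv, transpose_smul] at h1
    rw [coe_GL_mul_scalar, transpose_smul, smul_mul_smul_comm, Units.val_mul,
      (by decide : ∀ a : F, a * a * (a * a) = a), h1, Matrix.mul_smul]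
  choose g h1 h2 using k
  rw [← cardO, ← Nat.card_eq_fintype_card]
  refine Nat.card_le_card_of_injective (fun x => ⟨((g x).1 0 0, (g x).1 0 1, (g x).1 0 2,
    (g x).1 1 0, (g x).1 1 1, (g x).1 1 2), ?_, ?_, ?_⟩) fun x y e => ?_
  · simpa [mul_apply, Fin.sum_univ_three] using congrFun₂ (h2 x) 0 0
  · simpa [mul_apply, Fin.sum_univ_three] using congrFun₂ (h2 x) 1 1
  · simpa [mul_apply, Fin.sum_univ_three] using congrFun₂ (h2 x) 0 1
  simp only [Subtype.mk.injEq, Prod.mk.injEq] at e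
  have r : ∀ j, (g x).1 0 j = (g y).1 0 j ∧ (g x).1 1 j = (g y).1 1 j := fun j => by
    fin_cases j <;> simp [e]
  refine Subtype.ext ((h1 x).symm.trans ((congrArg _ (Units.ext (Matrix.ext fun i j => ?_))).trans
    (h1 y)))
  fin_cases i
  · exact (r j).1
  · exact (r j).2
  have a := congrFun₂ (mul_eq_one_comm.1 (h2 x) : (g x).1ᵀ * (g x).1 = 1) j j
  have b := congrFun₂ (mul_eq_one_comm.1 (h2 y) : (g y).1ᵀ * (g y).1 = 1) j j
  simp only [mul_apply, Fin.sum_univ_three, transpose_apply, one_apply_eq, (r j).1, (r j).2] at a b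
  exact (by decide : ∀ a b : F, a * a = b * b → a = b) _ _ (add_left_cancel (a.trans b.symm))

theorem types : ∃ φ γ : MulAut PSL(3, F), ∀ τ, τ * τ = 1 → τ ∉ Inn PSL(3, F) →
    (Nat.card ↥(D ⊓ centralizer {τ}) = 168 ∧ τ * φ⁻¹ ∈ D) ∨
      (Nat.card ↥(D ⊓ centralizer {τ}) ≤ 60 ∧ τ * γ⁻¹ ∈ D) ∨
        Group.IsSolvable ↥(D ⊓ centralizer {τ}) := by
  have hF : Fintype.card F = 2 ^ 2 := rfl
  obtain ⟨σ, s1, uq⟩ := (Nat.card_eq_two_iff' 1).1 (card_ringAut hF)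
  have s2 : orderOf σ = 2 := ((Nat.dvd_prime Nat.prime_two).1
    (orderOf_ringAut_dvd hF σ)).resolve_left fun e => s1 (orderOf_eq_one_iff.1 e)
  refine ⟨fieldAut _ F σ, graphAut _ F, fun τ h1 h2 => ?_⟩
  have h5 : orderOf τ = 2 := orderOf_eq_prime (by rw [sq, h1]) fun e => h2 (e ▸ one_mem _)
  obtain ⟨g, σ', k | k⟩ := PSL_aut_eq (by omega) τ <;> by_cases hσ : σ' = 1
  · rw [hσ, map_one, mul_one] at k
    exact absurd (inner ⟨g, k.symm⟩ h1) h2
  · obtain rfl := uq σ' hσ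
    have h6 : orderOf (fieldAut (Fin 3) F σ') = 2 := by rw [orderOf_fieldAut, s2]
    obtain ⟨α, -, k'⟩ := isConjUnder_of_orderOf_eq (by omega) hσ (Or.inl rfl)
      (h6 ▸ Nat.prime_two) ⟨g, rfl⟩ (by rw [h6, ← k, h5])
    obtain ⟨-, ⟨e⟩, -⟩ := Agent.S2698.result hF (by omega) (by omega) (by omega) τ ⟨α⁻¹, σ', hσ,
      isStdFieldAutPSL_iff.2 (by rw [k, k']; group)⟩ Nat.prime_two h5 (ZMod 2) rfl
    rw [inndiagPSL_eq_range] at e
    have c := card_PGL_mul (ι := Fin 3) (F := ZMod 2)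
    rw [card_GL_field, Nat.card_zmod, ZMod.card, Nat.add_one_sub_one, mul_one] at c
    exact .inl ⟨(Nat.card_congr e.toEquiv).trans (c.trans (by decide)), g, by simp [k]⟩
  · rw [hσ, map_one, mul_one] at k
    have c : IsGraphAutClassPSL τ := ⟨le_rfl, _, _, isInnerDiagonalAutPSL_iff.2 ⟨g, rfl⟩,
      isInverseTransposeAutPSL_iff.2 rfl, k⟩
    have c' : IsGraphAutClassPSL (graphAut (Fin 3) F) := ⟨le_rfl, _, _,
      isInnerDiagonalAutPSL_iff.2 ⟨1, rfl⟩, isInverseTransposeAutPSL_iff.2 rfl, by simp⟩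
    have h6 : orderOf (graphAut (Fin 3) F) = 2 := orderOf_eq_prime graphAut_sq fun e =>
      h2 (inner ⟨g, by rw [k, e, mul_one]⟩ h1)
    obtain ⟨⟨e⟩, -⟩ := Agent.S2699.result hF (by omega) le_rfl (m := 1) rfl τ τ c h5 c h5
    obtain ⟨⟨e'⟩, -⟩ := Agent.S2699.result hF (by omega) le_rfl (m := 1) rfl _ _ c' h6 c' h6
    rw [inndiagPSL_eq_range] at e e'
    exact .inr (.inl ⟨(Nat.card_congr (e.trans e'.symm).toEquiv).trans_le card_graph, g, by simp [k]⟩)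
  have h7 : orderOf (fieldAut (Fin 3) F σ' * graphAut _ F) = 2 := orderOf_eq_prime
    (by rw [(commute_graphAut_fieldAut σ').symm.mul_pow, graphAut_sq, ← map_pow, uq σ' hσ, ← s2,
      pow_orderOf_eq_one]; simp)
    fun e => fieldAut_mul_graphAut_notMem_range_innD 2 (by simp) σ' (e ▸ one_mem _)
  rw [mul_assoc] at k
  obtain ⟨α, -, k'⟩ := isConjUnder_of_orderOf_eq (by omega) hσ (Or.inr ⟨le_rfl, rfl⟩)
    (h7 ▸ Nat.prime_two) ⟨g, rfl⟩ (by rw [h7, ← k, h5])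
  obtain ⟨-, -, ⟨e⟩, -⟩ := Agent.S2704.result hF (by omega) le_rfl τ ⟨le_rfl, α⁻¹, _, _, σ', hσ,
    isStdFieldAutPSL_iff.2 rfl, isInverseTransposeAutPSL_iff.2 rfl, by rw [k, k']; group⟩ h5
  rw [inndiagPSL_eq_range] at e
  refine .inr (.inr (Char.isSolvable_of_card_dvd (a := 3) (b := 4) Nat.prime_two Nat.prime_three _
    ((Nat.card_congr e.toEquiv).dvd.trans ((card_quotient_dvd_card _).trans ?_))))
  rw [Agent.S0277.result (q := 2 ^ (2 / 2)) rfl]
  decide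

end Cfsg.Lib.QET.KlA
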